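import Cfsg.Agent.H872.BR.OmPre
import Cfsg.Agent.H621.BR.Bridge
import Cfsg.Agent.H16.BR.ExtSo
import Cfsg.Agent.H748.BR.OmFrob

/-!
# HUB BR: the family `Ω(Q)`, `q` odd (helper748)
-/

set_option autoImplicit false

namespace Cfsg.Agent.H748.BR

open Module Cfsg Cfsg.Agent.H883.BR Cfsg.Agent.LieClassical.OrthCore Cfsg.Agent.LieClassical.OrthTrans
open Cfsg.Agent.H872.BR (qs_om good_om idx_om tprim_om card_Omega_le)

/-- the count for `d = n (n - 1) / 2` -/
theorem count_odd {F : Type} [Field F] [Fintype F] {ι : Type} [Fintype ι] [DecidableEq ι] {Q : QuadraticForm F (ι → F)}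
    (hQ : ∀ v, (∀ w, QuadraticMap.polar Q v w = 0) → v = 0) (h7 : 7 ≤ Fintype.card ι) {d : ℕ}
    (hd : (Fintype.card ι).choose 2 = d) (hc : 3 ^ Fintype.card ι * d.factorial + 3 ≤ Fintype.card F) :
    ∀ M : Subgroup (Om Q), M ≠ ⊤ → Nat.card M < Nat.choose (Fintype.card F - 1 + d) d := by
  intro M hM
  have h1 := card_Omega_le Q hQ
  rw [Nat.card_eq_fintype_card (α := F), hd] at h1
  have h2 := idx_om hQ h7 hc hM
  refine H212.BR.count_of_lt (c := 3 ^ Fintype.card ι) (e := 0) Fintype.card_pos h1 ?_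
  rw [pow_zero, mul_one]
  refine lt_of_le_of_lt ?_ h2
  exact Nat.le_mul_of_pos_right _ Fintype.card_pos

set_option maxHeartbeats 2000000 in
theorem fam_odd {F : Type} [Field F] [Fintype F] {ι : Type} [Fintype ι] [DecidableEq ι] (Q : QuadraticForm F (ι → F))
    {n d : ℕ} (hn : Fintype.card ι = n) (h7 : 7 ≤ n) (hQ : ∀ v, (∀ w, QuadraticMap.polar Q v w = 0) → v = 0)
    (hodd : Odd (Fintype.card F)) (hd : n.choose 2 = d)
    (h1 : 3 ^ n * d.factorial + 3 ≤ Fintype.card F) (h2 : n + 3 ≤ Fintype.card F)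
    (h3 : 2 * n ^ 2 < Fintype.card F)
    (hpw : ∀ k, 0 < k → 2 * k + 1 < Nat.card F → ∃ g : Om Q, ad (rho Q (AlgebraicClosure F)) (g ^ k) ≠ 1) :
    ∃ p : ℕ, Fam p n d (Fintype.card F) (H212.BR.base F) (rho Q (AlgebraicClosure F))
      (H621.BR.oms Q (AlgebraicClosure F)) := by
  obtain ⟨p, hc⟩ := CharP.exists F
  obtain ⟨m, hp, hm⟩ := FiniteField.card F p
  have hpf : Fact p.Prime := ⟨hp⟩
  have hp2 : p ≠ 2 := by
    rintro rfl
    rw [hm] at hodd
    exact (Nat.not_even_iff_odd.2 hodd) ((even_two.pow_of_ne_zero m.ne_zero))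
  have hcK : CharP (AlgebraicClosure F) p := H212.BR.charP_closure F p
  have h2K : (2 : AlgebraicClosure F) ≠ 0 := by
    intro h
    have h4 : ((2 : ℕ) : AlgebraicClosure F) = 0 := by exact_mod_cast h
    rw [CharP.cast_eq_zero_iff (AlgebraicClosure F) p] at h4
    exact hp2 ((Nat.prime_dvd_prime_iff_eq hp Nat.prime_two).1 h4)
  have hG : Good Q := good_om hQ (by omega)
  have hcard : Nat.card (H212.BR.base F) = Fintype.card F := by
    rw [H212.BR.card_base, Nat.card_eq_fintype_card]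
  have hfin : Finite (H212.BR.base F) := H212.BR.finite_base F
  have hfr : finrank (AlgebraicClosure F) (so (BK Q (AlgebraicClosure F))) = n * (n - 1) / 2 := by
    rw [H621.BR.om_finrank_so (AlgebraicClosure F) hG h2K, hn]
  have hle : n * (n - 1) / 2 ≤ n ^ 2 := by
    rw [pow_two]
    exact (Nat.div_le_self _ _).trans (Nat.mul_le_mul_left _ (Nat.sub_le _ _))
  have hirr : ∀ M : Subgroup (Om Q), Dns (ad (rho Q (AlgebraicClosure F))) M →
      Irr (V := so (BK Q (AlgebraicClosure F))) (H621.BR.oms Q (AlgebraicClosure F)) M :=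
    fun M hM => H621.BR.oms_irr (AlgebraicClosure F) hG h2K hM
  refine ⟨p, ?_⟩
  exact
  { prime := hp
    char := hcK
    closed := inferInstance
    locfin := H212.BR.locfin F
    finF := hfin
    cardF := hcard
    finG := inferInstance
    qs := qs_om hQ (by omega)
    fdV := inferInstance
    fdW := inferInstance
    dimV := by rw [Module.finrank_fintype_fun_eq_card, hn]
    two_le := by omega
    dimW := by rw [hfr]; exact hle
    inj := rho_inj
    irr := H621.BR.om_irr _ hG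
    tprim := tprim_om _ hQ (by omega) (by omega) hcard
    root := ⟨_, H621.BR.omx (AlgebraicClosure F) hG, H621.BR.om_oneP _ hG, H621.BR.om_polyDeg _ hG,
      H621.BR.oms_polyDeg _ hG h2K⟩
    inh := hirr
    cen := fun z c hz => H621.BR.oms_cen _ hz
    ext := by
      intro M U _ hU hU1 _ w hw hfix
      have h4 : 4 ≤ finrank (AlgebraicClosure F) (ι → AlgebraicClosure F) := by
        rw [Module.finrank_fintype_fun_eq_card]; omega
      obtain ⟨z, hz, a, ha0, haa, hza, hb, v0, v1, -, -, -, -, -, hwd⟩ := H16.BR.ext_so_fam (p := p) hp2 h4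
        (B := BK Q (AlgebraicClosure F)) (ρ := rho Q (AlgebraicClosure F)) BK_comm (fun u hu => BK_nondeg hQ hu)
        BK_rho rho_inj (W := so (BK Q (AlgebraicClosure F))) (σ := H621.BR.oms Q (AlgebraicClosure F))
        (so (BK Q (AlgebraicClosure F))).subtype Subtype.val_injective
        (fun X => ⟨fun hX => ⟨⟨X, hX⟩, rfl⟩, by rintro ⟨w, rfl⟩; exact w.2⟩) (fun g w => rfl) hU hU1 w hw hfix
      refine ⟨z, hz, a, ha0, haa, hza, fun b _ _ c hc => hb b c hc, fun S hS haS => ?_⟩
      have hso : a ∈ so (BK Q (AlgebraicClosure F)) := by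
        rw [hwd]
        exact H16.BR.sk_wd BK_comm v0 v1
      have h5 := H621.BR.om_le_finrank (AlgebraicClosure F) hG h2K hS haS hso ha0
      rw [hn] at h5
      rw [← hd, Nat.choose_two_right]
      exact h5
    trF := fun g => trace_sub (S := so (BK Q (AlgebraicClosure F))) (fun τ hτ X hX => frE_so hτ hX) g
      (fun X hX => so_inv g (Subgroup.mem_top _) X hX) fun X => rfl
    count := by
      subst hn
      exact count_odd hQ h7 hd h1
    trn := by
      have hfr2 : 2 ≤ finrank (AlgebraicClosure F) (so (BK Q (AlgebraicClosure F))) := by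
        rw [hfr]
        have h8 : 7 * 6 ≤ n * (n - 1) := Nat.mul_le_mul h7 (by omega)
        omega
      obtain ⟨g, -, hg⟩ := H872.BR.exists_ne_one (H := ⊤) (hirr ⊤ fun U hU => hU) hfr2
      exact H583.BR.Trn.trn_of_irr (F := H212.BR.base F) (e := 2) (hirr ⊤ fun U hU => hU) (H621.BR.om_oneP _ hG)
        (H621.BR.oms_polyDeg _ hG h2K) (by rw [hcard, hfr]; omega) ⟨g, hg⟩
    pw := by
      intro k hk hk2
      exact hpw k hk (by rw [Nat.card_eq_fintype_card]; exact hk2) }

/-- **F: the stub `fam_omega_odd`**, modulo `pw` (helper212: `pw_om`) -/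
theorem fam_omega_odd_of (n : ℕ) (hn : 7 ≤ n)
    (pw : ∀ (F : Type) [Field F] [Finite F] (ι : Type) [Fintype ι] [DecidableEq ι] (Q : QuadraticForm F (ι → F)),
      (∀ v, (∀ w, QuadraticMap.polar Q v w = 0) → v = 0) → 7 ≤ Fintype.card ι →
      ∀ (K : Type) [Field K] [Algebra F K], ∀ k, 0 < k → 2 * k + 1 < Nat.card F → ∃ g : Om Q, ad (rho Q K) (g ^ k) ≠ 1) :
    ∃ q₀ : ℕ, ∀ (F : Type) [Field F] [Fintype F], q₀ ≤ Fintype.card F →
    Odd (Fintype.card F) → ∀ (ι : Type) [Fintype ι] [DecidableEq ι] (Q : QuadraticForm F (ι → F)),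
    Fintype.card ι = n → (∀ v, (∀ w, QuadraticMap.polar Q v w = 0) → v = 0) →
    HasFam.{0, 0} n (Fintype.card F) (Omega F (fun v : ι → F => Q v)) := by
  refine ⟨3 ^ n * (n.choose 2).factorial + 3 + (n + 3) + (2 * n ^ 2 + 1), ?_⟩
  intro F _ _ hq hodd ι _ _ Q hι hQ
  obtain ⟨p, hp⟩ := fam_odd Q hι hn hQ hodd rfl (by omega) (by omega) (by omega)
    (pw F ι Q hQ (by omega) (AlgebraicClosure F))
  exact ⟨p, n.choose 2, AlgebraicClosure F, inferInstance, H212.BR.base F, ι → AlgebraicClosure F,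
    so (BK Q (AlgebraicClosure F)), inferInstance, inferInstance, inferInstance, inferInstance,
    rho Q (AlgebraicClosure F), H621.BR.oms Q (AlgebraicClosure F), hp⟩

end Cfsg.Agent.H748.BR
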